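import Mathlib
import Cfsg.Agent.Lib.Helper11.DihedralAut
import Cfsg.Agent.Lib.Helper40.PComp

set_option autoImplicit false

namespace Cfsg.Agent.Lib.Helper53.D4

/-- STEP: `S` a dihedral Sylow 2-subgroup, `R ≤ S` not a four-group, `N_S(R)` Sylow in `N_X(R)`.
Then every element of `N_X(R)` acts on `R` as an element of `S`. -/
theorem step {X : Type*} [Group X] [Finite X] (S : Sylow 2 X) (m : ℕ)
    (eS : (S : Subgroup X) ≃* DihedralGroup m) (R : Subgroup X) (hR : R ≤ (S : Subgroup X))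
    (hK : ¬ IsKleinFour R)
    (hT : ¬ 2 ∣ ((S : Subgroup X) ⊓ Subgroup.normalizer (R : Set X)).relIndex
      (Subgroup.normalizer (R : Set X)))
    (x : X) (hx : x ∈ Subgroup.normalizer (R : Set X)) :
    ∃ s ∈ (S : Subgroup X), ∀ w ∈ R, x⁻¹ * w * x = s⁻¹ * w * s := by
  classical
  have : Fact (Nat.Prime 2) := ⟨Nat.prime_two⟩
  let ρ : Subgroup.normalizer (R : Set X) →* MulAut R := R.normalizerMonoidHom
  let f : R →* DihedralGroup m := eS.toMonoidHom.comp (Subgroup.inclusion hR)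
  have hf : Function.Injective f := eS.injective.comp (Subgroup.inclusion_injective hR)
  obtain ⟨A, hAc, hidx, hinv⟩ := Cfsg.Agent.Lib.Helper11.dihedral_structure f hf
  have hR2 : IsPGroup 2 R := S.isPGroup'.to_le hR
  have himg : IsPGroup 2 ρ.range := by
    rintro ⟨β, hβ⟩
    obtain ⟨a, ha⟩ := Cfsg.Agent.Lib.Helper40.exists_pow_coprime 2 β
    refine ⟨a, ?_⟩
    rcases Cfsg.Agent.Lib.Helper11.aut_eq_one_or_kleinFour hR2 A hidx
      (fun x hx => (hinv x hx).1) (β ^ 2 ^ a) ha with h | h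
    · exact Subtype.ext h
    · exact absurd h hK
  have hT2 : IsPGroup 2 (((S : Subgroup X) ⊓ Subgroup.normalizer (R : Set X)).subgroupOf
      (Subgroup.normalizer (R : Set X))) := by
    apply IsPGroup.comap_of_injective (S.isPGroup'.to_le inf_le_left) _
      (Subgroup.subtype_injective _)
  let P : Sylow 2 (Subgroup.normalizer (R : Set X)) := hT2.toSylow hT
  have hs : Function.Surjective ρ.rangeRestrict := ρ.rangeRestrict_surjective
  have h1 : ((P.mapSurjective hs : Sylow 2 ρ.range) : Subgroup ρ.range) = ⊤ :=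
    ((P.mapSurjective hs).is_maximal' (himg.to_subgroup ⊤) le_top).symm
  rw [Sylow.coe_mapSurjective] at h1
  have hx' : x⁻¹ ∈ Subgroup.normalizer (R : Set X) := Subgroup.inv_mem _ hx
  have h2 : ρ.rangeRestrict ⟨x⁻¹, hx'⟩ ∈ (P : Subgroup _).map ρ.rangeRestrict := by
    rw [h1]; exact Subgroup.mem_top _
  obtain ⟨s, hsP, hsx⟩ := h2
  have hsS : (s : X) ∈ (S : Subgroup X) := (Subgroup.mem_subgroupOf.1 hsP).1
  refine ⟨(s : X)⁻¹, Subgroup.inv_mem _ hsS, ?_⟩
  intro w hw
  have h3 : ρ s = ρ ⟨x⁻¹, hx'⟩ := congrArg Subtype.val hsx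
  have h4 := congrArg (fun β : MulAut R => ((β ⟨w, hw⟩ : R) : X)) h3
  simp only [ρ, Subgroup.normalizerMonoidHom_apply_apply_coe] at h4
  rw [inv_inv] at h4 ⊢
  exact h4.symm

end Cfsg.Agent.Lib.Helper53.D4
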