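import Mathlib
import Cfsg.Agent.S0116
import Cfsg.Agent.Lib.Helper53.D4.STEP

set_option autoImplicit false

namespace Cfsg.Agent.Lib.Helper53.D4

/-- CHAIN: fusion of four-subgroups of a dihedral Sylow 2-subgroup `S` preserves the kernel of any
homomorphism from `S` to a commutative group. -/
theorem chain {X : Type*} [Group X] [Finite X] (S : Sylow 2 X) (m : ℕ)
    (eS : (S : Subgroup X) ≃* DihedralGroup m)
    (φ : (S : Subgroup X) →* Multiplicative (ZMod 2))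
    (U : Subgroup X) (hU : U ≤ (S : Subgroup X)) (hK : IsKleinFour U) (g : X)
    (hg : ∀ u ∈ U, g⁻¹ * u * g ∈ (S : Subgroup X))
    (hφ : ∀ u (hu : u ∈ U), φ ⟨u, hU hu⟩ = 1) :
    ∀ u (hu : u ∈ U), φ ⟨g⁻¹ * u * g, hg u hu⟩ = 1 := by
  classical
  have : Fact (Nat.Prime 2) := ⟨Nat.prime_two⟩
  obtain ⟨n, Q, x, hprod, hx, h0, hstep⟩ := Cfsg.Agent.S0116.result S (U : Set X) g
    (fun u hu => hU hu) (by rintro _ ⟨u, hu, rfl⟩; exact hg u hu)
  obtain ⟨y, hy⟩ : ∃ y : ℕ → X, ∀ k, y k = ((List.ofFn x).take k).prod := ⟨_, fun _ => rfl⟩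
  have hy0 : y 0 = 1 := by rw [hy]; simp
  have hysucc : ∀ k (hk : k < n), y (k + 1) = y k * x ⟨k, hk⟩ := by
    intro k hk
    rw [hy, hy, List.prod_take_succ _ _ (by simpa using hk)]
    simp
  have hyn : y n = g := by
    rw [hy, ← hprod, List.take_of_length_le (by simp)]
  have hmem : ∀ k (hk : k < n), ∀ u ∈ U,
      (y k)⁻¹ * u * y k ∈ ((S : Subgroup X) ⊓ (Q ⟨k, hk⟩ : Subgroup X)) := by
    intro k hk u hu
    rcases k with _ | i
    · rw [hy0, inv_one, one_mul, mul_one]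
      exact h0 hk hu
    · have := hstep ⟨i, by omega⟩ hk ⟨u, hu, rfl⟩
      rw [hy]
      exact this
  have key : ∀ k, k ≤ n → ∀ u ∈ U, ∃ h : (y k)⁻¹ * u * y k ∈ (S : Subgroup X),
      φ ⟨(y k)⁻¹ * u * y k, h⟩ = 1 := by
    intro k
    induction k with
    | zero =>
      intro _ u hu
      have h1 : (y 0)⁻¹ * u * y 0 = u := by rw [hy0]; simp
      have h1' : (y 0)⁻¹ * u * y 0 ∈ (S : Subgroup X) := by rw [h1]; exact hU hu
      refine ⟨h1', ?_⟩
      have h2 : (⟨(y 0)⁻¹ * u * y 0, h1'⟩ : (S : Subgroup X)) = ⟨u, hU hu⟩ :=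
        Subtype.ext h1
      rw [h2]
      exact hφ u hu
    | succ k ih =>
      intro hk u hu
      have hk' : k < n := hk
      have ih' := ih hk'.le
      obtain ⟨hxN, hxT, -⟩ := hx ⟨k, hk'⟩
      have hw := hmem k hk' u hu
      have hconj : (y (k + 1))⁻¹ * u * y (k + 1)
          = (x ⟨k, hk'⟩)⁻¹ * ((y k)⁻¹ * u * y k) * x ⟨k, hk'⟩ := by
        rw [hysucc k hk']; group
      by_cases hR : IsKleinFour ((S : Subgroup X) ⊓ (Q ⟨k, hk'⟩ : Subgroup X) : Subgroup X)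
      · -- the conjugate of `U` is all of `R`
        let c : U → ((S : Subgroup X) ⊓ (Q ⟨k, hk'⟩ : Subgroup X) : Subgroup X) :=
          fun v => ⟨(y k)⁻¹ * v * y k, hmem k hk' v v.2⟩
        have hc : Function.Injective c := by
          intro a b hab
          have h1 : (y k)⁻¹ * (a : X) * y k = (y k)⁻¹ * (b : X) * y k := congrArg Subtype.val hab
          exact Subtype.ext (mul_left_cancel (mul_right_cancel h1))
        have hbij : Function.Bijective c :=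
          (Nat.bijective_iff_injective_and_card c).2 ⟨hc, by rw [hK.card_four, hR.card_four]⟩
        have hin : (x ⟨k, hk'⟩)⁻¹ * ((y k)⁻¹ * u * y k) * x ⟨k, hk'⟩ ∈
            ((S : Subgroup X) ⊓ (Q ⟨k, hk'⟩ : Subgroup X) : Subgroup X) := by
          have h1 := (Subgroup.mem_normalizer_iff.1 (Subgroup.inv_mem _ hxN) _).1 hw
          rwa [inv_inv] at h1
        obtain ⟨v, hv⟩ := hbij.2 ⟨_, hin⟩
        have hv' : (y k)⁻¹ * (v : X) * y k
            = (x ⟨k, hk'⟩)⁻¹ * ((y k)⁻¹ * u * y k) * x ⟨k, hk'⟩ := congrArg Subtype.val hv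
        obtain ⟨h2, h3⟩ := ih' v v.2
        have h4 : (y (k + 1))⁻¹ * u * y (k + 1) = (y k)⁻¹ * (v : X) * y k := by
          rw [hconj, hv']
        have h4' : (y (k + 1))⁻¹ * u * y (k + 1) ∈ (S : Subgroup X) := by rw [h4]; exact h2
        refine ⟨h4', ?_⟩
        have h5 : (⟨(y (k + 1))⁻¹ * u * y (k + 1), h4'⟩ : (S : Subgroup X))
            = ⟨(y k)⁻¹ * (v : X) * y k, h2⟩ := Subtype.ext h4
        rw [h5]
        exact h3
      · obtain ⟨s, hsS, hs⟩ := step S m eS _ inf_le_left hR hxT _ hxN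
        obtain ⟨h2, h3⟩ := ih' u hu
        have h4 : (y (k + 1))⁻¹ * u * y (k + 1) = s⁻¹ * ((y k)⁻¹ * u * y k) * s := by
          rw [hconj, hs _ hw]
        have h6 : s⁻¹ * ((y k)⁻¹ * u * y k) * s ∈ (S : Subgroup X) :=
          Subgroup.mul_mem _ (Subgroup.mul_mem _ (Subgroup.inv_mem _ hsS) h2) hsS
        have h4' : (y (k + 1))⁻¹ * u * y (k + 1) ∈ (S : Subgroup X) := by rw [h4]; exact h6
        refine ⟨h4', ?_⟩
        have h5 : (⟨(y (k + 1))⁻¹ * u * y (k + 1), h4'⟩ : (S : Subgroup X))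
            = (⟨s, hsS⟩ : (S : Subgroup X))⁻¹ * ⟨(y k)⁻¹ * u * y k, h2⟩ * ⟨s, hsS⟩ :=
          Subtype.ext h4
        rw [h5, map_mul, map_mul, map_inv, h3, mul_one, inv_mul_cancel]
  intro u hu
  obtain ⟨h, h'⟩ := key n le_rfl u hu
  have h1 : (⟨g⁻¹ * u * g, hg u hu⟩ : (S : Subgroup X)) = ⟨(y n)⁻¹ * u * y n, h⟩ :=
    Subtype.ext (by show g⁻¹ * u * g = (y n)⁻¹ * u * y n; rw [hyn])
  rw [h1]
  exact h'

end Cfsg.Agent.Lib.Helper53.D4
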