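import Mathlib

set_option autoImplicit false

namespace Cfsg.Agent.Lib.Helper53.D4

open DihedralGroup

/-- at most one nonzero solution of `k + k = 0` in `ZMod m` -/
theorem four_half_unique (m : ℕ) (k l : ZMod m) (hk : k ≠ 0) (hl : l ≠ 0) (hkk : k + k = 0)
    (hll : l + l = 0) : k = l := by
  cases m with
  | zero =>
    exfalso
    apply hk
    have h1 : ∀ z : ℤ, z + z = 0 → z = 0 := fun z hz => by omega
    exact h1 k hkk
  | succ n =>
    have key : ∀ x : ZMod (n + 1), x ≠ 0 → x + x = 0 → x.val + x.val = n + 1 := by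
      intro x hx hxx
      have h1 : (x + x).val = 0 := by rw [hxx]; exact ZMod.val_zero
      rw [ZMod.val_add] at h1
      have h2 : x.val < n + 1 := ZMod.val_lt x
      have h3 : x.val ≠ 0 := fun h => hx ((ZMod.val_eq_zero x).1 h)
      obtain ⟨c, hc⟩ := Nat.dvd_of_mod_eq_zero h1
      have hc1 : c = 1 := by
        rcases c with _ | _ | c
        · omega
        · rfl
        · exfalso
          have : (n + 1) * (c + 1 + 1) = (n + 1) * c + (n + 1) + (n + 1) := by ring
          have h5 : 0 ≤ (n + 1) * c := Nat.zero_le _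
          omega
      rw [hc, hc1, mul_one]
    have h1 := key k hk hkk
    have h2 := key l hl hll
    apply ZMod.val_injective
    omega

/-- the elements of a four-group -/
theorem four_elems {X : Type*} [Group X] (V : Subgroup X) (hV : IsKleinFour V) :
    ∃ x y : X, x ∈ V ∧ y ∈ V ∧ x ≠ 1 ∧ y ≠ 1 ∧ x ≠ y ∧ x * x = 1 ∧ y * y = 1 ∧
      (x * y) * (x * y) = 1 ∧ ∀ z, z ∈ V ↔ z = 1 ∨ z = x ∨ z = y ∨ z = x * y := by
  have hfin : Finite ↥V := IsKleinFour.instFinite
  have hnt : Nontrivial ↥V := by
    rw [← Finite.one_lt_card_iff_nontrivial, hV.card_four]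
    norm_num
  obtain ⟨x, hx⟩ := exists_ne (1 : ↥V)
  have hy : ∃ y : ↥V, y ∉ Subgroup.zpowers x := by
    by_contra hcon
    exact IsKleinFour.not_isCyclic (G := ↥V) ⟨x, fun y => by
      by_contra hy
      exact hcon ⟨y, hy⟩⟩
  obtain ⟨y, hy⟩ := hy
  have hy1 : y ≠ 1 := fun h => hy (h ▸ Subgroup.one_mem _)
  have hxy : x ≠ y := fun h => hy (h ▸ Subgroup.mem_zpowers x)
  refine ⟨x, y, x.2, y.2, fun h => hx (Subtype.ext h), fun h => hy1 (Subtype.ext h),
    fun h => hxy (Subtype.ext h), congrArg Subtype.val (IsKleinFour.mul_self x),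
    congrArg Subtype.val (IsKleinFour.mul_self y), congrArg Subtype.val (IsKleinFour.mul_self (x * y)),
    fun z => ⟨fun hz => ?_, ?_⟩⟩
  · by_cases h1 : z = 1
    · exact Or.inl h1
    by_cases h2 : z = x
    · exact Or.inr (Or.inl h2)
    by_cases h3 : z = y
    · exact Or.inr (Or.inr (Or.inl h3))
    right; right; right
    have := IsKleinFour.eq_mul_of_ne_all (x := x) (y := y) (z := ⟨z, hz⟩) hx hy1 hxy
      (fun h => h1 (congrArg Subtype.val h)) (fun h => h2 (congrArg Subtype.val h))
      (fun h => h3 (congrArg Subtype.val h))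
    exact congrArg Subtype.val this
  · rintro (rfl | rfl | rfl | rfl)
    · exact V.one_mem
    · exact x.2
    · exact y.2
    · exact V.mul_mem x.2 y.2

/-- FOUR: a Klein four-subgroup `V` of `D_m` is `{1, r h, sr i, sr (i + h)}` with `h ≠ 0`,
`h + h = 0`. -/
theorem four_shape (m : ℕ) (V : Subgroup (DihedralGroup m)) (hV : IsKleinFour V) :
    ∃ h i : ZMod m, h ≠ 0 ∧ h + h = 0 ∧
      (V : Set (DihedralGroup m)) =
        {1, DihedralGroup.r h, DihedralGroup.sr i, DihedralGroup.sr (i + h)} := by
  obtain ⟨x, y, -, -, hx1, hy1, hxy, hxx, hyy, hxyxy, hmem⟩ := four_elems V hV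
  have hr0 : ∀ k : ZMod m, (r k : DihedralGroup m) ≠ 1 → k ≠ 0 := by
    intro k hk h0
    exact hk (by rw [h0, r_zero])
  have hrr : ∀ k : ZMod m, (r k : DihedralGroup m) * r k = 1 → k + k = 0 := by
    intro k hk
    rw [r_mul_r, one_def] at hk
    exact r.inj hk
  rcases x with k | j <;> rcases y with l | l
  · exfalso
    apply hxy
    rw [four_half_unique m k l (hr0 k hx1) (hr0 l hy1) (hrr k hxx) (hrr l hyy)]
  · have hkk := hrr k hxx
    refine ⟨k, l, hr0 k hx1, hkk, ?_⟩
    have e : l - k = l + k := by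
      have : -k = k := by rw [neg_eq_iff_add_eq_zero]; exact hkk
      rw [sub_eq_add_neg, this]
    ext z
    rw [SetLike.mem_coe, hmem, r_mul_sr, e]
    simp only [Set.mem_insert_iff, Set.mem_singleton_iff]
  · have hll := hrr l hyy
    refine ⟨l, j, hr0 l hy1, hll, ?_⟩
    ext z
    rw [SetLike.mem_coe, hmem, sr_mul_r]
    simp only [Set.mem_insert_iff, Set.mem_singleton_iff]
    tauto
  · rw [sr_mul_sr] at hxyxy
    refine ⟨l - j, j, ?_, hrr _ hxyxy, ?_⟩
    · intro h0
      apply hxy
      rw [sub_eq_zero.1 h0]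
    · ext z
      rw [SetLike.mem_coe, hmem, sr_mul_sr, add_sub_cancel]
      simp only [Set.mem_insert_iff, Set.mem_singleton_iff]
      tauto

/-- FOURK: conversely these sets are Klein four-subgroups. -/
theorem four_exists (m : ℕ) (h i : ZMod m) (h0 : h ≠ 0) (hh : h + h = 0) :
    ∃ V : Subgroup (DihedralGroup m), IsKleinFour V ∧
      (V : Set (DihedralGroup m)) =
        {1, DihedralGroup.r h, DihedralGroup.sr i, DihedralGroup.sr (i + h)} := by
  have hneg : -h = h := by rw [neg_eq_iff_add_eq_zero]; exact hh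
  have e1 : i - h = i + h := by rw [sub_eq_add_neg, hneg]
  have e2 : i + h - h = i := by ring
  have e3 : i + h + h = i := by rw [add_assoc, hh, add_zero]
  have e4 : i + h - i = h := by ring
  have e5 : i - (i + h) = h := by
    have : i - (i + h) = -h := by ring
    rw [this, hneg]
  let V : Subgroup (DihedralGroup m) :=
    { carrier := {1, r h, sr i, sr (i + h)}
      one_mem' := by simp
      mul_mem' := by
        intro a b ha hb
        simp only [Set.mem_insert_iff, Set.mem_singleton_iff] at ha hb ⊢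
        rcases ha with rfl | rfl | rfl | rfl <;> rcases hb with rfl | rfl | rfl | rfl <;>
          simp [hh, e1, e2, e3, e4, e5]
      inv_mem' := by
        intro a ha
        simp only [Set.mem_insert_iff, Set.mem_singleton_iff] at ha ⊢
        rcases ha with rfl | rfl | rfl | rfl <;> simp [hneg] }
  have hVset : (V : Set (DihedralGroup m)) = {1, r h, sr i, sr (i + h)} := rfl
  refine ⟨V, ⟨?_, ?_⟩, hVset⟩
  · have h1 : Nat.card ↥V = (V : Set (DihedralGroup m)).ncard := rfl
    rw [h1, hVset]
    have n3 : (sr i : DihedralGroup m) ≠ sr (i + h) := by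
      intro hc
      apply h0
      have := sr.inj hc
      exact (left_eq_add.1 this)
    rw [Set.ncard_insert_of_notMem, Set.ncard_insert_of_notMem, Set.ncard_pair n3]
    · simp
    · simp only [Set.mem_insert_iff, Set.mem_singleton_iff, not_or]
      refine ⟨?_, ?_, ?_⟩
      · rw [one_def]; intro hc; exact h0 (r.inj hc).symm
      · rw [one_def]; intro hc; cases hc
      · rw [one_def]; intro hc; cases hc
  · have hdvd : Monoid.exponent ↥V ∣ 2 := by
      apply Monoid.exponent_dvd_of_forall_pow_eq_one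
      rintro ⟨a, ha⟩
      apply Subtype.ext
      have ha' : a ∈ ({1, r h, sr i, sr (i + h)} : Set (DihedralGroup m)) := ha
      simp only [Set.mem_insert_iff, Set.mem_singleton_iff] at ha'
      rcases ha' with rfl | rfl | rfl | rfl <;> simp [sq, hh]
    rcases (Nat.dvd_prime Nat.prime_two).1 hdvd with h1 | h2
    · exfalso
      rw [Monoid.exp_eq_one_iff] at h1
      have h2 : (⟨r h, by change r h ∈ ({1, r h, sr i, sr (i + h)} : Set (DihedralGroup m)); simp⟩ : ↥V) = 1 :=
        Subsingleton.elim _ _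
      have h3 : (r h : DihedralGroup m) = 1 := congrArg Subtype.val h2
      rw [one_def] at h3
      exact h0 (r.inj h3)
    · exact h2

end Cfsg.Agent.Lib.Helper53.D4
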