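import Mathlib

set_option autoImplicit false

namespace Cfsg.Agent.Lib.Helper53.D4

theorem par_neg (x : ZMod 2) : -x = x := by
  revert x; decide

/-- PAR: the parity homomorphism of a dihedral group `D_m`, `m` even:
`r i ↦ i mod 2`, `sr i ↦ i mod 2`. -/
theorem exists_par (m : ℕ) (h2 : 2 ∣ m) :
    ∃ φ : DihedralGroup m →* Multiplicative (ZMod 2),
      (∀ i : ZMod m, φ (DihedralGroup.r i) = Multiplicative.ofAdd (ZMod.castHom h2 (ZMod 2) i)) ∧
      (∀ i : ZMod m, φ (DihedralGroup.sr i) = Multiplicative.ofAdd (ZMod.castHom h2 (ZMod 2) i)) := by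
  let f : DihedralGroup m → Multiplicative (ZMod 2) := fun g =>
    match g with
    | DihedralGroup.r i => Multiplicative.ofAdd (ZMod.castHom h2 (ZMod 2) i)
    | DihedralGroup.sr i => Multiplicative.ofAdd (ZMod.castHom h2 (ZMod 2) i)
  refine ⟨MonoidHom.mk' f ?_, fun i => rfl, fun i => rfl⟩
  rintro (i | i) (j | j)
  · change Multiplicative.ofAdd (ZMod.castHom h2 (ZMod 2) (i + j)) = Multiplicative.ofAdd _ * Multiplicative.ofAdd _
    rw [map_add, ofAdd_add]
  · change Multiplicative.ofAdd (ZMod.castHom h2 (ZMod 2) (j - i)) = Multiplicative.ofAdd _ * Multiplicative.ofAdd _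
    rw [map_sub, sub_eq_add_neg, par_neg, add_comm, ofAdd_add]
  · change Multiplicative.ofAdd (ZMod.castHom h2 (ZMod 2) (i + j)) = Multiplicative.ofAdd _ * Multiplicative.ofAdd _
    rw [map_add, ofAdd_add]
  · change Multiplicative.ofAdd (ZMod.castHom h2 (ZMod 2) (j - i)) = Multiplicative.ofAdd _ * Multiplicative.ofAdd _
    rw [map_sub, sub_eq_add_neg, par_neg, add_comm, ofAdd_add]

end Cfsg.Agent.Lib.Helper53.D4
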