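import Mathlib
import Cfsg.Agent.Lib.Helper53.D4.PAR
import Cfsg.Agent.Lib.Helper53.D4.FOUR

set_option autoImplicit false

namespace Cfsg.Agent.Lib.Helper53.D4

open DihedralGroup

theorem dih_conj (m : ℕ) (a h i e : ZMod m) (hi : i = a + a + e) (V U : Subgroup (DihedralGroup m))
    (hV : (V : Set (DihedralGroup m)) = {1, r h, sr i, sr (i + h)})
    (hU : (U : Set (DihedralGroup m)) = {1, r h, sr e, sr (e + h)}) :
    V.map (MulAut.conj (r a : DihedralGroup m)).toMonoidHom = U := by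
  apply SetLike.coe_injective
  rw [Subgroup.coe_map, hV, hU, Set.image_insert_eq, Set.image_insert_eq, Set.image_insert_eq,
    Set.image_singleton]
  have e1 : (MulAut.conj (r a : DihedralGroup m)).toMonoidHom 1 = 1 := map_one _
  have e2 : (MulAut.conj (r a : DihedralGroup m)).toMonoidHom (r h) = r h := by
    change r a * r h * (r a)⁻¹ = r h
    rw [inv_r, r_mul_r, r_mul_r]
    congr 1
    ring
  have e3 : ∀ x : ZMod m, (MulAut.conj (r a : DihedralGroup m)).toMonoidHom (sr x) = sr (x - a - a) := by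
    intro x
    change r a * sr x * (r a)⁻¹ = sr (x - a - a)
    rw [inv_r, r_mul_sr, sr_mul_r]
    congr 1
    ring
  rw [e1, e2, e3, e3]
  have e4 : i - a - a = e := by rw [hi]; ring
  have e5 : i + h - a - a = e + h := by rw [hi]; ring
  rw [e4, e5]

/-- DIH: in `D_m` with `4 ∣ m` there are a homomorphism `φ` to a group of order two and two
four-subgroups `U₁ ≤ ker φ`, `U₂ ≰ ker φ` such that every four-subgroup is conjugate to one of
them. -/
theorem dih (m : ℕ) (hm : 0 < m) (h4 : 4 ∣ m) :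
    ∃ (φ : DihedralGroup m →* Multiplicative (ZMod 2)) (U₁ U₂ : Subgroup (DihedralGroup m)),
      IsKleinFour U₁ ∧ IsKleinFour U₂ ∧ U₁ ≤ φ.ker ∧ ¬ U₂ ≤ φ.ker ∧
      ∀ V : Subgroup (DihedralGroup m), IsKleinFour V →
        (∃ d : DihedralGroup m, V.map (MulAut.conj d).toMonoidHom = U₁) ∨
        (∃ d : DihedralGroup m, V.map (MulAut.conj d).toMonoidHom = U₂) := by
  obtain ⟨n, rfl⟩ := h4
  have hn : 0 < n := by omega
  have h2 : 2 ∣ 4 * n := ⟨2 * n, by ring⟩
  obtain ⟨φ, hφr, hφs⟩ := exists_par (4 * n) h2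
  set h : ZMod (4 * n) := ((2 * n : ℕ) : ZMod (4 * n)) with hdef
  have h0 : h ≠ 0 := by
    rw [hdef, Ne, ZMod.natCast_eq_zero_iff]
    intro hd
    have := Nat.le_of_dvd (by omega) hd
    omega
  have hh : h + h = 0 := by
    rw [hdef, ← Nat.cast_add, ZMod.natCast_eq_zero_iff]
    exact ⟨1, by ring⟩
  have hcast : ZMod.castHom h2 (ZMod 2) h = 0 := by
    rw [hdef, map_natCast, ZMod.natCast_eq_zero_iff]
    exact ⟨n, rfl⟩
  obtain ⟨U₁, hU₁k, hU₁⟩ := four_exists (4 * n) h 0 h0 hh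
  obtain ⟨U₂, hU₂k, hU₂⟩ := four_exists (4 * n) h 1 h0 hh
  refine ⟨φ, U₁, U₂, hU₁k, hU₂k, ?_, ?_, ?_⟩
  · intro x hx
    have hx' : x ∈ (U₁ : Set (DihedralGroup (4 * n))) := hx
    rw [hU₁] at hx'
    simp only [Set.mem_insert_iff, Set.mem_singleton_iff] at hx'
    rw [MonoidHom.mem_ker]
    rcases hx' with rfl | rfl | rfl | rfl
    · exact map_one φ
    · rw [hφr, hcast]; rfl
    · rw [hφs, map_zero]; rfl
    · rw [hφs, map_add, map_zero, hcast, add_zero]; rfl
  · intro hle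
    have hx : (sr 1 : DihedralGroup (4 * n)) ∈ U₂ := by
      have : (sr 1 : DihedralGroup (4 * n)) ∈ (U₂ : Set (DihedralGroup (4 * n))) := by
        rw [hU₂]; simp
      exact this
    have h1 := hle hx
    rw [MonoidHom.mem_ker, hφs, map_one] at h1
    have h3 : (1 : ZMod 2) = 0 := Multiplicative.ofAdd.injective h1
    exact absurd h3 (by decide)
  · intro V hV
    obtain ⟨h', i, h'0, h'h', hVset⟩ := four_shape (4 * n) V hV
    have hEq : h' = h := four_half_unique (4 * n) h' h h'0 h0 h'h' hh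
    rw [hEq] at hVset
    have : NeZero (4 * n) := ⟨by omega⟩
    have hi : ((i.val : ℕ) : ZMod (4 * n)) = i := ZMod.natCast_zmod_val i
    rcases Nat.even_or_odd' i.val with ⟨a, ha | ha⟩
    · left
      refine ⟨r (a : ZMod (4 * n)), dih_conj (4 * n) a h i 0 ?_ V U₁ hVset hU₁⟩
      rw [← hi, ha]
      push_cast
      ring
    · right
      refine ⟨r (a : ZMod (4 * n)), dih_conj (4 * n) a h i 1 ?_ V U₂ hVset hU₂⟩
      rw [← hi, ha]
      push_cast
      ring

end Cfsg.Agent.Lib.Helper53.D4
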