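import Mathlib

set_option autoImplicit false

namespace Cfsg.Agent.Lib.Helper53.D4

theorem syl_map_map {X : Type*} [Group X] (a b : X) (U : Subgroup X) :
    (U.map (MulAut.conj b).toMonoidHom).map (MulAut.conj a).toMonoidHom =
      U.map (MulAut.conj (a * b)).toMonoidHom := by
  rw [Subgroup.map_map]
  congr 1
  ext x
  simp [mul_assoc]

/-- SYL: every four-subgroup is conjugate into a given Sylow 2-subgroup. -/
theorem syl {X : Type*} [Group X] [Finite X] (S : Sylow 2 X) (V : Subgroup X)
    (hV : IsKleinFour V) :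
    ∃ x : X, V.map (MulAut.conj x).toMonoidHom ≤ (S : Subgroup X) := by
  obtain ⟨Q, hQ⟩ := (IsPGroup.of_card (p := 2) (n := 2) (by rw [hV.card_four]; norm_num)).exists_le_sylow
  obtain ⟨g, hg⟩ := MulAction.exists_smul_eq X Q S
  refine ⟨g, ?_⟩
  rintro _ ⟨v, hv, rfl⟩
  rw [← hg, Sylow.coe_subgroup_smul]
  exact Subgroup.smul_mem_pointwise_smul v (MulAut.conj g) Q (hQ hv)

/-- SYL4: if `|S| = 4` all four-subgroups are conjugate. -/
theorem syl4 {X : Type*} [Group X] [Finite X] (S : Sylow 2 X) (h4 : Nat.card S = 4)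
    (U V : Subgroup X) (hU : IsKleinFour U) (hV : IsKleinFour V) :
    ∃ x : X, U.map (MulAut.conj x).toMonoidHom = V := by
  have key : ∀ W : Subgroup X, IsKleinFour W →
      ∃ x : X, W.map (MulAut.conj x).toMonoidHom = (S : Subgroup X) := by
    intro W hW
    obtain ⟨x, hx⟩ := syl S W hW
    refine ⟨x, Subgroup.eq_of_le_of_card_ge hx ?_⟩
    rw [Subgroup.card_map_of_injective (MulAut.conj x).injective, hW.card_four]
    exact h4.le
  obtain ⟨x, hx⟩ := key U hU
  obtain ⟨y, hy⟩ := key V hV
  refine ⟨y⁻¹ * x, ?_⟩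
  rw [← syl_map_map, hx, ← hy, syl_map_map, inv_mul_cancel]
  ext z
  simp

/-- KMAP: images of four-groups under injective homomorphisms are four-groups. -/
theorem kmap {A B : Type*} [Group A] [Group B] (f : A →* B) (hf : Function.Injective f)
    (V : Subgroup A) (hV : IsKleinFour V) : IsKleinFour (V.map f) :=
  ⟨by rw [Subgroup.card_map_of_injective hf]; exact hV.card_four,
    by rw [← Monoid.exponent_eq_of_mulEquiv (V.equivMapOfInjective f hf)]; exact hV.exponent_two⟩

/-- KCOMAP: a four-subgroup `V ≤ S` gives the four-subgroup `V.subgroupOf S` of `S`. -/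
theorem kcomap {A : Type*} [Group A] (S V : Subgroup A) (hVS : V ≤ S) (hV : IsKleinFour V) :
    IsKleinFour (V.subgroupOf S) :=
  ⟨by rw [Nat.card_congr (Subgroup.subgroupOfEquivOfLe hVS).toEquiv]; exact hV.card_four,
    by rw [Monoid.exponent_eq_of_mulEquiv (Subgroup.subgroupOfEquivOfLe hVS)]; exact hV.exponent_two⟩

end Cfsg.Agent.Lib.Helper53.D4
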